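import Cfsg.Agent.Lib.Helper44.GL2PS

set_option autoImplicit false

namespace Cfsg.Agent.Lib.Helper44

open Matrix Cfsg
open scoped ComplexConjugate

/-- The irreducible characters of `GL₂`. -/
abbrev IrrGL (F : Type*) [Field F] := IrrCharacter (GL (Fin 2) F)

variable {F : Type*} [Field F] [Fintype F] [DecidableEq F]

theorem gram_GL_zero_zero {ψ : AddChar F ℂ} (hψ : ψ.IsPrimitive) :
    ∑ χ : IrrCharacter (GL (Fin 2) F), mS ψ uGLc χ 0 * conj (mS ψ uGLc χ 0) =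
      2 * ((Fintype.card F : ℂ) - 1) ^ 2 := by
  rw [gram_GL hψ]
  simp only [zero_mul, if_true, Finset.sum_const, Finset.card_univ, Fintype.card_units, nsmul_eq_mul, mul_one]
  rw [Nat.cast_sub Fintype.card_pos]
  push_cast
  ring

theorem gram_GL_zero_one {ψ : AddChar F ℂ} (hψ : ψ.IsPrimitive) :
    ∑ χ : IrrCharacter (GL (Fin 2) F), mS ψ uGLc χ 0 * conj (mS ψ uGLc χ 1) =
      ((Fintype.card F : ℂ) - 1) ^ 2 := by
  rw [gram_GL hψ]
  have : ∀ a d : Fˣ, (if 1 * ((a : F) / d) = 0 then (1 : ℂ) else 0) = 0 := by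
    intro a d
    rw [if_neg]
    rw [one_mul]
    exact div_ne_zero a.ne_zero d.ne_zero
  simp only [this, Finset.sum_const_zero, add_zero]

theorem gram_GL_one_one {ψ : AddChar F ℂ} (hψ : ψ.IsPrimitive) :
    ∑ χ : IrrCharacter (GL (Fin 2) F), mS ψ uGLc χ 1 * conj (mS ψ uGLc χ 1) =
      ((Fintype.card F : ℂ) - 1) ^ 2 + ((Fintype.card F : ℂ) - 1) := by
  rw [gram_GL hψ]
  have h2 : ∀ a : Fˣ, ∑ d : Fˣ, (if 1 * ((a : F) / d) = 1 then (1 : ℂ) else 0) = 1 := by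
    intro a
    rw [Finset.sum_eq_single a]
    · simp
    · intro d _ hd
      rw [if_neg]
      intro h
      rw [one_mul, div_eq_one_iff_eq d.ne_zero] at h
      exact hd (Units.ext h.symm)
    · intro h; exact absurd (Finset.mem_univ _) h
  simp only [h2, Finset.sum_const, Finset.card_univ, Fintype.card_units, nsmul_eq_mul, mul_one]
  rw [Nat.cast_sub Fintype.card_pos]
  push_cast
  ring

/-- All the numerical data on the irreducible characters of `GL₂`. -/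
theorem gl2_data {ψ : AddChar F ℂ} (hψ : ψ.IsPrimitive) :
    ∃ m₀ m₁ : IrrCharacter (GL (Fin 2) F) → ℕ,
      (∀ χ, m₁ χ ≤ 1) ∧ (∀ χ, m₀ χ ≤ 2) ∧
      (∀ χ : IrrGL F, (χ : GL (Fin 2) F → ℂ) 1 = ((m₀ χ + (Fintype.card F - 1) * m₁ χ : ℕ) : ℂ)) ∧
      (∀ χ : IrrGL F, m₁ χ = 0 → (χ : GL (Fin 2) F → ℂ) 1 = 1) ∧
      ∑ χ, m₁ χ ^ 2 = (Fintype.card F - 1) ^ 2 + (Fintype.card F - 1) ∧
      ∑ χ, m₀ χ * m₁ χ = (Fintype.card F - 1) ^ 2 ∧
      ∑ χ, m₀ χ ^ 2 = 2 * (Fintype.card F - 1) ^ 2 ∧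
      Fintype.card (IrrCharacter (GL (Fin 2) F)) = Fintype.card F ^ 2 - 1 := by
  classical
  have hch : ∀ χ : IrrCharacter (GL (Fin 2) F), IsCharacter _ (χ : GL (Fin 2) F → ℂ) :=
    fun χ => Cfsg.Agent.Lib.Helper82.isIrr_isChar χ.2
  have hcl := fun χ => Cfsg.Agent.Lib.Helper20.isClassFunction_of_isCharacter (hch χ)
  choose m₀ hm₀ using fun χ : IrrCharacter (GL (Fin 2) F) => mS_nat ψ uGLc (hch χ) 0
  choose m₁ hm₁ using fun χ : IrrCharacter (GL (Fin 2) F) => mS_nat ψ uGLc (hch χ) 1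
  have hq : 1 ≤ Fintype.card F := Fintype.card_pos
  have hq2 : 1 < Fintype.card F := Fintype.one_lt_card
  have hun : ∀ χ : IrrGL F, ∀ s : F, s ≠ 0 → mS ψ uGLc χ s = m₁ χ := by
    intro χ s hs
    rw [gl2_mS_eq (hcl χ) hs, hm₁]
  have hval := fun χ : IrrCharacter (GL (Fin 2) F) =>
    apply_of_mS_uniform hψ uGLc (χ : GL (Fin 2) F → ℂ) (m₁ χ) (hun χ)
  have hdeg : ∀ χ : IrrCharacter (GL (Fin 2) F),
      (χ : GL (Fin 2) F → ℂ) 1 = ((m₀ χ + (Fintype.card F - 1) * m₁ χ : ℕ) : ℂ) := by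
    intro χ
    have := hval χ 0
    rw [AddChar.map_zero_eq_one, if_pos rfl, hm₀] at this
    rw [this]
    push_cast [Nat.cast_sub hq]
    ring
  have hu : ∀ χ : IrrCharacter (GL (Fin 2) F), ∀ x : F, x ≠ 0 →
      (χ : GL (Fin 2) F → ℂ) (triGL 1 1 x) = (m₀ χ : ℂ) - m₁ χ := by
    intro χ x hx
    have := hval χ x
    rw [if_neg hx, hm₀, uGLc_apply] at this
    rw [this]; ring
  have hlin : ∀ χ : IrrGL F, m₁ χ = 0 → (χ : GL (Fin 2) F → ℂ) 1 = 1 := by
    intro χ hm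
    apply gl2_linear_of_U χ.2
    intro x
    by_cases hx : x = 0
    · subst hx
      have := (uGLc (F := F)).map_zero_eq_one
      rw [uGLc_apply] at this
      rw [this]
    · rw [hu χ x hx, hdeg, hm]
      simp
  have hm1 : ∀ χ, m₁ χ ≤ 1 := by
    intro χ
    rcases gl2_mS_one_le hψ χ with h | h
    · rw [hm₁] at h
      have : m₁ χ = 0 := by exact_mod_cast h
      omega
    · rw [hm₁] at h
      have : m₁ χ = 1 := by exact_mod_cast h
      omega
  have h1 : ∑ χ, m₁ χ ^ 2 = (Fintype.card F - 1) ^ 2 + (Fintype.card F - 1) := by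
    have := gram_GL_one_one hψ
    simp only [hm₁, Complex.conj_natCast] at this
    have h3 : ((∑ χ, m₁ χ ^ 2 : ℕ) : ℂ) = (((Fintype.card F - 1) ^ 2 + (Fintype.card F - 1) : ℕ) : ℂ) := by
      push_cast [Nat.cast_sub hq]
      rw [← this]
      apply Finset.sum_congr rfl
      intro χ _
      ring
    exact_mod_cast h3
  have h2 : ∑ χ, m₀ χ * m₁ χ = (Fintype.card F - 1) ^ 2 := by
    have := gram_GL_zero_one hψ
    simp only [hm₀, hm₁, Complex.conj_natCast] at this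
    have h3 : ((∑ χ, m₀ χ * m₁ χ : ℕ) : ℂ) = (((Fintype.card F - 1) ^ 2 : ℕ) : ℂ) := by
      push_cast [Nat.cast_sub hq]
      rw [← this]
    exact_mod_cast h3
  have h3 : ∑ χ, m₀ χ ^ 2 = 2 * (Fintype.card F - 1) ^ 2 := by
    have := gram_GL_zero_zero hψ
    simp only [hm₀, Complex.conj_natCast] at this
    have h3 : ((∑ χ, m₀ χ ^ 2 : ℕ) : ℂ) = ((2 * (Fintype.card F - 1) ^ 2 : ℕ) : ℂ) := by
      push_cast [Nat.cast_sub hq]
      rw [← this]
      apply Finset.sum_congr rfl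
      intro χ _
      ring
    exact_mod_cast h3
  have h4 : Fintype.card (IrrCharacter (GL (Fin 2) F)) = Fintype.card F ^ 2 - 1 := by
    rw [← Nat.card_eq_fintype_card, Cfsg.Agent.Lib.Helper20.card_irrCharacter, Cfsg.Agent.S2330.result]
  refine ⟨m₀, m₁, hm1, ?_, hdeg, hlin, h1, h2, h3, h4⟩
  intro χ
  obtain ⟨r, hr, hsum, -⟩ := gl2_exists_r (hch χ)
  have hm0' : (Fintype.card F : ℂ)⁻¹ * ∑ x : F, (χ : GL (Fin 2) F → ℂ) (triGL 1 1 x) = m₀ χ := by
    rw [← hm₀]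
    simp [mS]
  rw [hm0'] at hsum
  have hsum' : m₀ χ = ∑ p, r p := by exact_mod_cast hsum
  by_cases h0 : ∑ p, r p = 0
  · omega
  · have h4 : ∃ p, r p ≠ 0 := by
      by_contra hcon
      push Not at hcon
      simp [hcon] at h0
    obtain ⟨p, hp⟩ := h4
    obtain ⟨φ, hφ, hR⟩ := gl2_exists_add_of_r χ.2 (α := p.1) (β := p.2) (by rw [hr]; exact_mod_cast hp)
    obtain ⟨n, hn⟩ := Cfsg.Agent.Lib.Helper20.isCharacter_apply_one hφ
    have h5 := congrFun hR 1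
    rw [RGL_one, Pi.add_apply, hdeg, hn] at h5
    have h6 : Fintype.card F + 1 = m₀ χ + (Fintype.card F - 1) * m₁ χ + n := by exact_mod_cast h5
    by_cases hz : m₁ χ = 0
    · have h7 := hlin χ hz
      rw [hdeg, hz] at h7
      have h8 : m₀ χ + (Fintype.card F - 1) * 0 = 1 := by exact_mod_cast h7
      omega
    · have h7 : m₁ χ = 1 := by have := hm1 χ; omega
      rw [h7] at h6
      omega

end Cfsg.Agent.Lib.Helper44
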