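import Cfsg.Agent.Lib.Helper44.SL2Twist

set_option autoImplicit false

namespace Cfsg.Agent.Lib.Helper44

open Matrix Cfsg
open scoped ComplexConjugate

variable {F : Type*} [Field F] [Fintype F] [DecidableEq F]

/-- Irreducible characters of `SL₂(q)`, `q` odd, whose restriction to `U` is not stable under `GL₂`
are determined by that restriction. -/
theorem sl2_odd_eq_of_type (hodd : Odd (Fintype.card F)) {ψ : AddChar F ℂ} (hψ : ψ.IsPrimitive) {ε : F}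
    (hε : ¬ IsSquare ε) {χ₁ χ₂ : SpecialLinearGroup (Fin 2) F → ℂ} (h₁ : IsIrrCharacter _ χ₁)
    (h₂ : IsIrrCharacter _ χ₂) (e0 : mS ψ uSLc χ₁ 0 = mS ψ uSLc χ₂ 0) (e1 : mS ψ uSLc χ₁ 1 = mS ψ uSLc χ₂ 1)
    (e2 : mS ψ uSLc χ₁ ε = mS ψ uSLc χ₂ ε) (hne : mS ψ uSLc χ₁ 1 ≠ mS ψ uSLc χ₁ ε) : χ₁ = χ₂ := by
  obtain ⟨m₀, a, b, d0, d1, d2, htype, -, -, -, -, g1, g2, g3, g4, g5, g6, g7⟩ := sl2_odd_data hodd hψ hε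
  obtain ⟨-, c2, c3, -, c5, c6, -, -⟩ := odd_counts (Fintype.card F) hodd m₀ a b htype g1 g2 g3 g4 g5 g6 g7
  have f0 : m₀ ⟨χ₁, h₁⟩ = m₀ ⟨χ₂, h₂⟩ := by
    have := (d0 ⟨χ₁, h₁⟩).symm.trans (e0.trans (d0 ⟨χ₂, h₂⟩))
    exact_mod_cast this
  have f1 : a ⟨χ₁, h₁⟩ = a ⟨χ₂, h₂⟩ := by
    have := (d1 ⟨χ₁, h₁⟩).symm.trans (e1.trans (d1 ⟨χ₂, h₂⟩))
    exact_mod_cast this
  have f2 : b ⟨χ₁, h₁⟩ = b ⟨χ₂, h₂⟩ := by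
    have := (d2 ⟨χ₁, h₁⟩).symm.trans (e2.trans (d2 ⟨χ₂, h₂⟩))
    exact_mod_cast this
  have f3 : a ⟨χ₁, h₁⟩ ≠ b ⟨χ₁, h₁⟩ := by
    intro e
    apply hne
    have k1 := d1 ⟨χ₁, h₁⟩
    have k2 := d2 ⟨χ₁, h₁⟩
    change mS ψ uSLc χ₁ 1 = _ at k1
    change mS ψ uSLc χ₁ ε = _ at k2
    rw [k1, k2, e]
  have key : (⟨χ₁, h₁⟩ : IrrSL F) = ⟨χ₂, h₂⟩ := by
    rcases htype ⟨χ₁, h₁⟩ with ⟨h0, h1, h2⟩ | ⟨h0, h1, h2⟩ | ⟨h0, h1, h2⟩ | ⟨h0, h1, h2⟩ | ⟨h0, h1, h2⟩ | ⟨h0, h1, h2⟩ |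
        ⟨h0, h1, h2⟩ | ⟨h0, h1, h2⟩
    · exact absurd (h1.trans h2.symm) f3
    · exact eq_of_cntT_eq_one c2 ⟨h0, h1, h2⟩ ⟨f0 ▸ h0, f1 ▸ h1, f2 ▸ h2⟩
    · exact eq_of_cntT_eq_one c3 ⟨h0, h1, h2⟩ ⟨f0 ▸ h0, f1 ▸ h1, f2 ▸ h2⟩
    · exact absurd (h1.trans h2.symm) f3
    · exact eq_of_cntT_eq_one c5 ⟨h0, h1, h2⟩ ⟨f0 ▸ h0, f1 ▸ h1, f2 ▸ h2⟩
    · exact eq_of_cntT_eq_one c6 ⟨h0, h1, h2⟩ ⟨f0 ▸ h0, f1 ▸ h1, f2 ▸ h2⟩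
    · exact absurd (h1.trans h2.symm) f3
    · exact absurd (h1.trans h2.symm) f3
  exact congrArg Subtype.val key

/-- The principal series character attached to the character of order two splits. -/
theorem sl2_half_PS (hodd : Odd (Fintype.card F)) {ψ : AddChar F ℂ} (hψ : ψ.IsPrimitive) {ε : F}
    (hε : ¬ IsSquare ε) (α : MulChar F ℂ) (hα : α ^ 2 = 1) (hα1 : α ≠ 1) :
    ∃ χ₁ χ₂ : SpecialLinearGroup (Fin 2) F → ℂ, IsIrrCharacter _ χ₁ ∧ IsIrrCharacter _ χ₂ ∧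
      indFun (borelSL F) (borelHomSL α) = χ₁ + χ₂ ∧
      (mS ψ uSLc χ₁ 0 = 1 ∧ mS ψ uSLc χ₁ 1 = 1 ∧ mS ψ uSLc χ₁ ε = 0) ∧
      (mS ψ uSLc χ₂ 0 = 1 ∧ mS ψ uSLc χ₂ 1 = 0 ∧ mS ψ uSLc χ₂ ε = 1) ∧
      χ₁ 1 = (((Fintype.card F + 1) / 2 : ℕ) : ℂ) ∧ χ₂ 1 = (((Fintype.card F + 1) / 2 : ℕ) : ℂ) := by
  have hε0 : ε ≠ 0 := by rintro rfl; exact hε IsSquare.zero
  have hsq : α = α⁻¹ := by rw [eq_inv_iff_mul_eq_one, ← sq]; exact hα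
  have hnorm : classInner (indFun (borelSL F) (borelHomSL α)) (indFun (borelSL F) (borelHomSL α)) = 2 := by
    rw [classInner_PS_SL, if_pos rfl, if_pos hsq]; norm_num
  obtain ⟨χ₁, χ₂, h₁, h₂, hne, hR⟩ := exists_two_irr_of_norm_two (isCharacter_RSL α) hnorm
  obtain ⟨m₀, a, b, d0, d1, d2, htype, hdeg, -, htriv, -, -, -, -, -, -, -, -⟩ := sl2_odd_data hodd hψ hε
  have s0 : m₀ ⟨χ₁, h₁⟩ + m₀ ⟨χ₂, h₂⟩ = 2 := by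
    have := mS_RSL hψ α 0
    rw [if_pos rfl, hR, mS_add] at this
    have k1 := d0 ⟨χ₁, h₁⟩
    have k2 := d0 ⟨χ₂, h₂⟩
    change mS ψ uSLc χ₁ 0 = _ at k1
    change mS ψ uSLc χ₂ 0 = _ at k2
    rw [k1, k2] at this
    have h3 : ((m₀ ⟨χ₁, h₁⟩ + m₀ ⟨χ₂, h₂⟩ : ℕ) : ℂ) = ((2 : ℕ) : ℂ) := by push_cast; rw [this]; norm_num
    exact_mod_cast h3
  have s1 : a ⟨χ₁, h₁⟩ + a ⟨χ₂, h₂⟩ = 1 := by
    have := mS_RSL hψ α 1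
    rw [if_neg one_ne_zero, hR, mS_add] at this
    have k1 := d1 ⟨χ₁, h₁⟩
    have k2 := d1 ⟨χ₂, h₂⟩
    change mS ψ uSLc χ₁ 1 = _ at k1
    change mS ψ uSLc χ₂ 1 = _ at k2
    rw [k1, k2] at this
    have h3 : ((a ⟨χ₁, h₁⟩ + a ⟨χ₂, h₂⟩ : ℕ) : ℂ) = ((1 : ℕ) : ℂ) := by push_cast; rw [this]; norm_num
    exact_mod_cast h3
  have s2 : b ⟨χ₁, h₁⟩ + b ⟨χ₂, h₂⟩ = 1 := by
    have := mS_RSL hψ α ε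
    rw [if_neg hε0, hR, mS_add] at this
    have k1 := d2 ⟨χ₁, h₁⟩
    have k2 := d2 ⟨χ₂, h₂⟩
    change mS ψ uSLc χ₁ ε = _ at k1
    change mS ψ uSLc χ₂ ε = _ at k2
    rw [k1, k2] at this
    have h3 : ((b ⟨χ₁, h₁⟩ + b ⟨χ₂, h₂⟩ : ℕ) : ℂ) = ((1 : ℕ) : ℂ) := by push_cast; rw [this]; norm_num
    exact_mod_cast h3
  have hin := classInner_one_RSL α
  rw [if_neg hα1, hR, Cfsg.Agent.Lib.Helper20.classInner_add_right] at hin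
  have nt1 : ¬ (a ⟨χ₁, h₁⟩ = 0 ∧ b ⟨χ₁, h₁⟩ = 0) := by
    rintro ⟨k1, k2⟩
    have k3 : χ₁ = fun _ => 1 := htriv ⟨χ₁, h₁⟩ k1 k2
    rw [← k3, Cfsg.Agent.Lib.Helper20.classInner_irr_self h₁, Cfsg.Agent.Lib.Helper20.classInner_irr_ne h₁ h₂ hne] at hin
    norm_num at hin
  have nt2 : ¬ (a ⟨χ₂, h₂⟩ = 0 ∧ b ⟨χ₂, h₂⟩ = 0) := by
    rintro ⟨k1, k2⟩
    have k3 : χ₂ = fun _ => 1 := htriv ⟨χ₂, h₂⟩ k1 k2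
    rw [← k3, Cfsg.Agent.Lib.Helper20.classInner_irr_self h₂, Cfsg.Agent.Lib.Helper20.classInner_irr_ne h₂ h₁ hne.symm] at hin
    norm_num at hin
  have t1 := htype ⟨χ₁, h₁⟩
  have t2 := htype ⟨χ₂, h₂⟩
  have D1 := hdeg ⟨χ₁, h₁⟩
  have D2 := hdeg ⟨χ₂, h₂⟩
  have A0 := d0 ⟨χ₁, h₁⟩
  have A1 := d1 ⟨χ₁, h₁⟩
  have A2 := d2 ⟨χ₁, h₁⟩
  have B0 := d0 ⟨χ₂, h₂⟩
  have B1 := d1 ⟨χ₂, h₂⟩
  have B2 := d2 ⟨χ₂, h₂⟩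
  change χ₁ 1 = _ at D1
  change χ₂ 1 = _ at D2
  change mS ψ uSLc χ₁ 0 = _ at A0
  change mS ψ uSLc χ₁ 1 = _ at A1
  change mS ψ uSLc χ₁ ε = _ at A2
  change mS ψ uSLc χ₂ 0 = _ at B0
  change mS ψ uSLc χ₂ 1 = _ at B1
  change mS ψ uSLc χ₂ ε = _ at B2
  generalize m₀ ⟨χ₁, h₁⟩ = x₁ at *
  generalize a ⟨χ₁, h₁⟩ = y₁ at *
  generalize b ⟨χ₁, h₁⟩ = z₁ at *
  generalize m₀ ⟨χ₂, h₂⟩ = x₂ at *
  generalize a ⟨χ₂, h₂⟩ = y₂ at *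
  generalize b ⟨χ₂, h₂⟩ = z₂ at *
  unfold OddType at t1 t2
  obtain ⟨k, hk⟩ := hodd
  have ek : (Fintype.card F - 1) / 2 = k := by omega
  have ek' : (Fintype.card F + 1) / 2 = k + 1 := by omega
  have hcases : (x₁ = 1 ∧ y₁ = 1 ∧ z₁ = 0 ∧ x₂ = 1 ∧ y₂ = 0 ∧ z₂ = 1) ∨
      (x₁ = 1 ∧ y₁ = 0 ∧ z₁ = 1 ∧ x₂ = 1 ∧ y₂ = 1 ∧ z₂ = 0) := by omega
  rcases hcases with ⟨rfl, rfl, rfl, rfl, rfl, rfl⟩ | ⟨rfl, rfl, rfl, rfl, rfl, rfl⟩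
  · refine ⟨χ₁, χ₂, h₁, h₂, hR, ⟨by simpa using A0, by simpa using A1, by simpa using A2⟩,
      ⟨by simpa using B0, by simpa using B1, by simpa using B2⟩, ?_, ?_⟩
    · rw [D1, ek, ek']; push_cast; ring
    · rw [D2, ek, ek']; push_cast; ring
  · refine ⟨χ₂, χ₁, h₂, h₁, by rw [hR, add_comm], ⟨by simpa using B0, by simpa using B1, by simpa using B2⟩,
      ⟨by simpa using A0, by simpa using A1, by simpa using A2⟩, ?_, ?_⟩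
    · rw [D2, ek, ek']; push_cast; ring
    · rw [D1, ek, ek']; push_cast; ring

/-- Twisting by a non-square swaps the two "half" types. -/
theorem sl2_twist_eq (hodd : Odd (Fintype.card F)) {ψ : AddChar F ℂ} (hψ : ψ.IsPrimitive) {ε : Fˣ}
    (hε : ¬ IsSquare (ε : F)) {χ₁ χ₂ : SpecialLinearGroup (Fin 2) F → ℂ} (h₁ : IsIrrCharacter _ χ₁)
    (h₂ : IsIrrCharacter _ χ₂) (e0 : mS ψ uSLc χ₁ 0 = mS ψ uSLc χ₂ 0) (e1 : mS ψ uSLc χ₁ 1 = mS ψ uSLc χ₂ ε)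
    (e2 : mS ψ uSLc χ₁ ε = mS ψ uSLc χ₂ 1) (hne : mS ψ uSLc χ₁ 1 ≠ mS ψ uSLc χ₁ ε) :
    χ₁ = fun g => χ₂ (twist ε g) := by
  have hcl := Cfsg.Agent.Lib.Helper20.isClassFunction_of_isCharacter (Cfsg.Agent.Lib.Helper82.isIrr_isChar h₂)
  apply sl2_odd_eq_of_type hodd hψ hε h₁ (Cfsg.Agent.Lib.Helper82.isIrr_comp_surj h₂ (twist ε) (twist_surjective ε))
  · rw [mS_twist, zero_mul, e0]
  · rw [mS_twist, one_mul, e1]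
    symm
    apply sl2_mS_of_not_isSquare hodd ψ hcl _ hε
    intro h
    apply hε
    obtain ⟨r, hr⟩ := h
    refine ⟨r⁻¹, ?_⟩
    rw [← mul_inv, ← hr]
    simp
  · rw [mS_twist, e2]
    simp
  · exact hne

end Cfsg.Agent.Lib.Helper44
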