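import Cfsg.Agent.Lib.Helper44.SL2OddCount

set_option autoImplicit false

namespace Cfsg.Agent.Lib.Helper44

open Matrix Cfsg
open scoped ComplexConjugate

variable {F : Type*} [Field F] [Fintype F] [DecidableEq F]

theorem classInner_one_RSL (α : MulChar F ℂ) :
    classInner (fun _ => (1 : ℂ)) (indFun (borelSL F) (borelHomSL α)) = if α = 1 then 1 else 0 := by
  rw [classInner_right_PS_SL _ (Cfsg.Agent.Lib.Helper20.isClassFunction_of_isCharacter
    (Cfsg.Agent.Lib.Helper20.isCharacter_one))]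
  simp only [one_mul, Finset.sum_const, Finset.card_univ, nsmul_eq_mul, ← Finset.mul_sum, ← map_sum,
    mulChar_sum_units]
  have hq := card_F_ne_zero (F := F)
  have hq1 := card_F_sub_one_ne_zero (F := F)
  split_ifs
  · simp only [map_sub, Complex.conj_natCast, map_one]
    field_simp
  · simp

/-- The restriction to `U` of an irreducible character of degree `q` is the regular character. -/
theorem sl2_steinberg_mS {ψ : AddChar F ℂ} (hψ : ψ.IsPrimitive) {χ : SpecialLinearGroup (Fin 2) F → ℂ}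
    (hχ : IsIrrCharacter _ χ) (hdeg : χ 1 = (Fintype.card F : ℂ)) (s : F) : mS ψ uSLc χ s = 1 := by
  have hq : 1 < Fintype.card F := Fintype.one_lt_card
  have hcl := Cfsg.Agent.Lib.Helper20.isClassFunction_of_isCharacter (Cfsg.Agent.Lib.Helper82.isIrr_isChar hχ)
  rcases Nat.even_or_odd (Fintype.card F) with heven | hodd
  · have hchar : ringChar F = 2 := FiniteField.even_card_iff_char_two.mpr (Nat.even_iff.mp heven)
    have : CharP F 2 := ringChar.of_eq hchar
    obtain ⟨m₀, m₁, e0, e1, hm1, hm0, hd, -, htriv, -, -, -, -, -⟩ := sl2_even_data hψ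
    have h3 := hd ⟨χ, hχ⟩
    have h5 := hm1 ⟨χ, hχ⟩
    have h6 := hm0 ⟨χ, hχ⟩
    have h7 := htriv ⟨χ, hχ⟩
    have h8 := e0 ⟨χ, hχ⟩
    have h9 := e1 ⟨χ, hχ⟩
    change χ 1 = _ at h3
    change _ → χ = _ at h7
    change mS ψ uSLc χ 0 = _ at h8
    change ∀ s : F, s ≠ 0 → mS ψ uSLc χ s = _ at h9
    generalize m₀ ⟨χ, hχ⟩ = x at *
    generalize m₁ ⟨χ, hχ⟩ = y at *
    rw [hdeg] at h3
    have h10 : Fintype.card F = x + (Fintype.card F - 1) * y := by exact_mod_cast h3
    have hy : y = 1 := by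
      interval_cases y
      · exfalso
        rw [h7 rfl] at hdeg
        have hdeg' : (1 : ℂ) = (Fintype.card F : ℂ) := hdeg
        have : (1 : ℕ) = Fintype.card F := by exact_mod_cast hdeg'
        omega
      · rfl
    subst hy
    have hx : x = 1 := by omega
    subst hx
    by_cases hs : s = 0
    · rw [hs, h8]; simp
    · rw [h9 s hs]; simp
  · obtain ⟨ε, hε⟩ := FiniteField.exists_nonsquare (ringChar_ne_two_of_odd hodd)
    obtain ⟨m₀, a, b, e0, e1, e2, htype, hd, -, -, -, -, -, -, -, -, -, -⟩ := sl2_odd_data hodd hψ hε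
    have h3 := hd ⟨χ, hχ⟩
    have h5 := htype ⟨χ, hχ⟩
    have h8 := e0 ⟨χ, hχ⟩
    have h9 := e1 ⟨χ, hχ⟩
    have h10 := e2 ⟨χ, hχ⟩
    change χ 1 = _ at h3
    change mS ψ uSLc χ 0 = _ at h8
    change mS ψ uSLc χ 1 = _ at h9
    change mS ψ uSLc χ ε = _ at h10
    generalize m₀ ⟨χ, hχ⟩ = x at *
    generalize a ⟨χ, hχ⟩ = y at *
    generalize b ⟨χ, hχ⟩ = z at *
    rw [hdeg] at h3
    have h11 : Fintype.card F = x + (Fintype.card F - 1) / 2 * (y + z) := by exact_mod_cast h3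
    have hodd' := hodd
    obtain ⟨k, hk⟩ := hodd'
    have h12 : x = 1 ∧ y = 1 ∧ z = 1 := by
      rcases h5 with ⟨h0, h1, h2⟩ | ⟨h0, h1, h2⟩ | ⟨h0, h1, h2⟩ | ⟨h0, h1, h2⟩ | ⟨h0, h1, h2⟩ | ⟨h0, h1, h2⟩ |
        ⟨h0, h1, h2⟩ | ⟨h0, h1, h2⟩ <;> subst h0 h1 h2
      all_goals first | (exfalso; omega) | simp
    obtain ⟨rfl, rfl, rfl⟩ := h12
    by_cases hs : s = 0
    · rw [hs, h8]; simp
    · by_cases hsq : IsSquare s
      · rw [sl2_mS_of_isSquare ψ hcl hs hsq, h9]; simp
      · rw [sl2_mS_of_not_isSquare hodd ψ hcl hsq hε, h10]; simp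

/-- An irreducible character of degree `q` of `SL₂(q)` is the Steinberg character. -/
theorem sl2_steinberg_eq {χ : SpecialLinearGroup (Fin 2) F → ℂ}
    (hχ : IsIrrCharacter _ χ) (hdeg : χ 1 = (Fintype.card F : ℂ)) (g : SpecialLinearGroup (Fin 2) F) :
    χ g = indFun (borelSL F) (borelHomSL (1 : MulChar F ℂ)) g - 1 := by
  obtain ⟨ψ, hψ⟩ := exists_primitive_addChar F
  have hq : 1 < Fintype.card F := Fintype.one_lt_card
  have hch := Cfsg.Agent.Lib.Helper82.isIrr_isChar hχ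
  have hm := sl2_steinberg_mS hψ hχ hdeg
  obtain ⟨r, hr, hsum, -⟩ := sl2_exists_r ψ hch
  rw [hm 0] at hsum
  have h4 : ∃ α, r α ≠ 0 := by
    by_contra hcon
    push Not at hcon
    simp [hcon] at hsum
  obtain ⟨α, hα⟩ := h4
  obtain ⟨φ, hφ, hR⟩ := sl2_exists_add_of_r hχ (α := α) (by rw [hr]; exact_mod_cast hα)
  have h5 : ∀ s : F, s ≠ 0 → mS ψ uSLc φ s = 0 := by
    intro s hs
    have := mS_RSL hψ α s
    rw [if_neg hs, hR, mS_add, hm s] at this
    linear_combination this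
  have h6 : ∀ x : F, φ (uSL x) = φ 1 := by
    intro x
    have e1 := apply_of_mS_uniform hψ uSLc φ 0 h5 x
    have e2 := apply_of_mS_uniform hψ uSLc φ 0 h5 0
    rw [AddChar.map_zero_eq_one] at e2
    rw [uSLc_apply] at e1
    rw [e1, e2, zero_mul, zero_mul]
  have h7 : φ 1 = 1 := by
    have := congrFun hR 1
    rw [RSL_one, Pi.add_apply, hdeg] at this
    linear_combination -this
  have h8 : φ = fun _ => 1 := by
    funext g
    rw [sl2_char_const_of_U hφ h6 g, h7]
  have h9 : α = 1 := by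
    by_contra hne
    have e1 := classInner_one_RSL α
    rw [if_neg hne, hR, Cfsg.Agent.Lib.Helper20.classInner_add_right, h8,
      Cfsg.Agent.Lib.Helper20.classInner_irr_self Cfsg.Agent.Lib.Helper83.isIrr_trivial,
      Cfsg.Agent.Lib.Helper20.classInner_irr_ne Cfsg.Agent.Lib.Helper83.isIrr_trivial hχ] at e1
    · norm_num at e1
    · intro e
      rw [← e] at hdeg
      have hdeg' : (1 : ℂ) = (Fintype.card F : ℂ) := hdeg
      have : (1 : ℕ) = Fintype.card F := by exact_mod_cast hdeg'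
      omega
  rw [← h9, hR, h8]
  simp

end Cfsg.Agent.Lib.Helper44
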