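import Cfsg.Agent.Lib.Helper44.SL2Steinberg
import Cfsg.Agent.Lib.Helper44.Conj2

set_option autoImplicit false

namespace Cfsg.Agent.Lib.Helper44

open Matrix Cfsg
open scoped ComplexConjugate

theorem exists_two_irr_of_norm_two {G : Type*} [Group G] [Fintype G] {R : G → ℂ} (hR : IsCharacter G R)
    (h : classInner R R = 2) :
    ∃ χ₁ χ₂ : G → ℂ, IsIrrCharacter G χ₁ ∧ IsIrrCharacter G χ₂ ∧ χ₁ ≠ χ₂ ∧ R = χ₁ + χ₂ := by
  classical
  obtain ⟨l, rfl⟩ := Cfsg.Agent.Lib.Helper20.exists_multiset_of_isCharacter hR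
  rcases l.empty_or_exists_mem with rfl | ⟨χ, hχ⟩
  · simp [Cfsg.Agent.Lib.Helper20.classInner_zero_left] at h
  · obtain ⟨l', rfl⟩ := Multiset.exists_cons_of_mem hχ
    rw [Multiset.map_cons, Multiset.sum_cons] at h ⊢
    have hφ : IsCharacter G (l'.map Subtype.val).sum := Cfsg.Agent.Lib.Helper20.isCharacter_multiset_sum l'
    generalize (l'.map Subtype.val).sum = φ at *
    have hch := Cfsg.Agent.Lib.Helper20.isCharacter_of_isIrrCharacter χ.2
    obtain ⟨n, hn⟩ := Cfsg.Agent.Lib.Helper20.isCharacter_classInner_nat' hch hφ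
    obtain ⟨N, hN⟩ := Cfsg.Agent.Lib.Helper20.isCharacter_classInner_nat' hφ hφ
    have hn' : classInner φ (χ : G → ℂ) = n := by
      rw [← Cfsg.Agent.Lib.Helper20.classInner_conj_symm, hn]; simp
    rw [Cfsg.Agent.Lib.Helper20.classInner_add_left, Cfsg.Agent.Lib.Helper20.classInner_add_right,
      Cfsg.Agent.Lib.Helper20.classInner_add_right, Cfsg.Agent.Lib.Helper20.classInner_irr_self χ.2, hn, hn', hN] at h
    have h2 : 1 + n + (n + N) = 2 := by exact_mod_cast h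
    have hn0 : n = 0 := by omega
    have hN1 : N = 1 := by omega
    have hirr : IsIrrCharacter G φ := Cfsg.Agent.Lib.Helper20.isIrrCharacter_of_classInner_self hφ (by rw [hN, hN1]; simp)
    refine ⟨χ, φ, χ.2, hirr, ?_, rfl⟩
    intro e
    rw [← e, Cfsg.Agent.Lib.Helper20.classInner_irr_self χ.2, hn0] at hn
    norm_num at hn

variable {F : Type*} [Field F]

/-- Conjugation by `diag(δ, 1)` on `SL₂`. -/
def twist (δ : Fˣ) : SpecialLinearGroup (Fin 2) F →* SpecialLinearGroup (Fin 2) F where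
  toFun g := mkSL !![(g : Matrix (Fin 2) (Fin 2) F) 0 0, (δ : F) * (g : Matrix (Fin 2) (Fin 2) F) 0 1;
      ((δ⁻¹ : Fˣ) : F) * (g : Matrix (Fin 2) (Fin 2) F) 1 0, (g : Matrix (Fin 2) (Fin 2) F) 1 1] (by
    have hd := g.det_coe
    rw [Matrix.det_fin_two] at hd
    rw [Matrix.det_fin_two_of]
    have : (δ : F) * ((δ⁻¹ : Fˣ) : F) = 1 := by simp
    linear_combination hd - (g : Matrix (Fin 2) (Fin 2) F) 0 1 * (g : Matrix (Fin 2) (Fin 2) F) 1 0 * this)
  map_one' := by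
    apply Subtype.ext
    ext i j; fin_cases i <;> fin_cases j <;> simp
  map_mul' g h := by
    apply Subtype.ext
    have : (δ : F) * (δ : F)⁻¹ = 1 := mul_inv_cancel₀ δ.ne_zero
    ext i j; fin_cases i <;> fin_cases j <;>
      simp only [coe_mkSL, Matrix.SpecialLinearGroup.coe_mul, Matrix.mul_apply, Fin.sum_univ_two] <;> simp
    · linear_combination (-(g : Matrix (Fin 2) (Fin 2) F) 0 1 * (h : Matrix (Fin 2) (Fin 2) F) 1 0) * this
    · ring
    · ring
    · linear_combination (-(g : Matrix (Fin 2) (Fin 2) F) 1 0 * (h : Matrix (Fin 2) (Fin 2) F) 0 1) * this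

@[simp] theorem coe_twist (δ : Fˣ) (g : SpecialLinearGroup (Fin 2) F) :
    ((twist δ g : SpecialLinearGroup (Fin 2) F) : Matrix (Fin 2) (Fin 2) F) =
      !![(g : Matrix (Fin 2) (Fin 2) F) 0 0, (δ : F) * (g : Matrix (Fin 2) (Fin 2) F) 0 1;
      ((δ⁻¹ : Fˣ) : F) * (g : Matrix (Fin 2) (Fin 2) F) 1 0, (g : Matrix (Fin 2) (Fin 2) F) 1 1] := rfl

theorem twist_twist_inv (δ : Fˣ) (g : SpecialLinearGroup (Fin 2) F) : twist δ (twist δ⁻¹ g) = g := by
  apply Subtype.ext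
  ext i j; fin_cases i <;> fin_cases j <;> simp

theorem twist_surjective (δ : Fˣ) : Function.Surjective (twist (F := F) δ) :=
  fun g => ⟨twist δ⁻¹ g, twist_twist_inv δ g⟩

theorem twist_uSL (δ : Fˣ) (x : F) : twist δ (uSL x) = uSL (δ * x) := by
  apply Subtype.ext
  ext i j; fin_cases i <;> fin_cases j <;> simp

theorem toGL_twist (δ : Fˣ) (g : SpecialLinearGroup (Fin 2) F) :
    Matrix.SpecialLinearGroup.toGL (twist δ g) = triGL δ 1 0 * Matrix.SpecialLinearGroup.toGL g * (triGL δ 1 0)⁻¹ := by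
  rw [eq_mul_inv_iff_mul_eq]
  apply Units.ext
  ext i j; fin_cases i <;> fin_cases j <;> simp [Matrix.mul_apply, Fin.sum_univ_two]
  · ring
  · field_simp

theorem mS_twist [Fintype F] (ψ : AddChar F ℂ) (χ : SpecialLinearGroup (Fin 2) F → ℂ) (δ : Fˣ) (s : F) :
    mS ψ uSLc (fun g => χ (twist δ g)) s = mS ψ uSLc χ (s * ((δ⁻¹ : Fˣ) : F)) := by
  unfold mS
  congr 1
  rw [← Equiv.sum_comp (Equiv.mulLeft₀ (δ : F) δ.ne_zero) (fun x => χ (uSLc x) * conj (ψ (s * ((δ⁻¹ : Fˣ) : F) * x)))]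
  apply Finset.sum_congr rfl
  intro x _
  show χ (twist δ (uSLc x)) * conj (ψ (s * x)) = χ (uSLc ((δ : F) * x)) * conj (ψ (s * ((δ⁻¹ : Fˣ) : F) * ((δ : F) * x)))
  rw [uSLc_apply, twist_uSL, uSLc_apply]
  congr 3
  have : ((δ⁻¹ : Fˣ) : F) * (δ : F) = 1 := by simp
  linear_combination (-s * x) * this

theorem disc_ne_zero_of_elliptic (h2 : (2 : F) ≠ 0) {m : Matrix (Fin 2) (Fin 2) F} (h : Elliptic m) :
    m.trace ^ 2 - 4 * m.det ≠ 0 := by
  intro h0
  have hc : m 1 0 ≠ 0 := by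
    have := Qf_ne_zero_of_elliptic h (x := 1) (y := 0) (Or.inl one_ne_zero)
    simpa [Qf] using this
  have h1 := Qf_ne_zero_of_elliptic h (x := -(m 1 1 - m 0 0) / (2 * m 1 0)) (y := 1) (Or.inr one_ne_zero)
  apply h1
  rw [Matrix.trace_fin_two, Matrix.det_fin_two] at h0
  unfold Qf
  field_simp
  linear_combination -h0

theorem sl2_isConj_of_gl2_conj_elliptic [Fintype F] (hodd : Odd (Fintype.card F)) {g h : SpecialLinearGroup (Fin 2) F}
    {x : GL (Fin 2) F}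
    (hx : Matrix.SpecialLinearGroup.toGL h = x * Matrix.SpecialLinearGroup.toGL g * x⁻¹)
    (hell : Elliptic (g : Matrix (Fin 2) (Fin 2) F)) : IsConj g h := by
  have ht : (g : Matrix (Fin 2) (Fin 2) F).trace = (h : Matrix (Fin 2) (Fin 2) F).trace := by
    exact gl2_trace_eq_of_isConj (isConj_iff.mpr ⟨x, hx.symm⟩)
  have hd := disc_ne_zero_of_elliptic (two_ne_zero_of_odd hodd) hell
  obtain ⟨x₁, y₁, e₁⟩ := exists_Qf_eq_one hodd hd
  have hd' : (h : Matrix (Fin 2) (Fin 2) F).trace ^ 2 - 4 * (h : Matrix (Fin 2) (Fin 2) F).det ≠ 0 := by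
    have hd2 := hd
    rw [g.det_coe] at hd2
    rw [← ht, h.det_coe]
    exact hd2
  obtain ⟨x₂, y₂, e₂⟩ := exists_Qf_eq_one hodd hd'
  exact sl2_isConj_of_Qf ht (x := x₁) (y := y₁) (x' := x₂) (y' := y₂) (by rw [e₁]; exact one_ne_zero) (by rw [e₁, e₂])

end Cfsg.Agent.Lib.Helper44
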